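import Mathlib
import Cfsg.Agent.Lib.Helper70.OPar.Defs

/-!
# Project OPAR (S5989): packages [SCAL], [UNIV]
-/

set_option autoImplicit false
open scoped MatrixGroups
open Matrix

namespace Cfsg.Agent.Lib.Helper45.OPar

open Cfsg.Agent.Lib.Helper23.OHyp Cfsg.Agent.Lib.Helper70.OPar

universe u

theorem pkgScal : PkgScal.{u} := by
  intro F _ ι _ _ hne Q hQ z hz
  obtain ⟨i⟩ := hne
  have hv0 : (Pi.single i 1 : ι → F) ≠ 0 := by
    intro h
    have := congrFun h i
    simp at this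
  obtain ⟨⟨x, hx⟩, _⟩ := hQ.nondegenerate _ hv0
  have hw : ∃ w : ι → F, Q w ≠ 0 := by
    by_contra hall
    push Not at hall
    apply hx
    unfold QuadraticMap.polar
    rw [hall, hall, hall]
    ring
  obtain ⟨w, hw⟩ := hw
  have h1 := hz w
  rw [Matrix.smul_mulVec, Matrix.one_mulVec, hQ.smul] at h1
  have h3 : (z ^ 2 - 1) * Q w = 0 := by linear_combination h1
  rcases mul_eq_zero.1 h3 with h | h
  · linear_combination h
  · exact absurd h hw

theorem pkgUniv : PkgUniv.{u} := by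
  intro F _ _ ι _ _ Q hQ h2 U hU hdim a ha
  have hB := hQ.polar_bilinear
  have hQadd : ∀ x y, Q (x + y) = Q x + Q y + QuadraticMap.polar Q x y := by
    intro x y
    unfold QuadraticMap.polar
    ring
  have hBself : ∀ x, QuadraticMap.polar Q x x = 2 * Q x := by
    intro x
    unfold QuadraticMap.polar
    rw [← two_smul F x, hQ.smul]
    ring
  have hex : ∀ x y : ι → F, QuadraticMap.polar Q x y ≠ 0 →
      Q (x + y) ≠ 0 ∨ Q x ≠ 0 ∨ Q y ≠ 0 := by
    intro x y h
    by_contra hall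
    push Not at hall
    apply h
    unfold QuadraticMap.polar
    rw [hall.1, hall.2.1, hall.2.2]
    ring
  have hUne : ∃ w ∈ U, w ≠ 0 := by
    by_contra hall
    push Not at hall
    have hbot : U = ⊥ := by
      rw [eq_bot_iff]
      intro w hw
      rw [Submodule.mem_bot]
      exact hall w hw
    rw [hbot, finrank_bot] at hdim
    omega
  obtain ⟨w0, hw0U, hw0⟩ := hUne
  obtain ⟨⟨x0, hx0U, hx0⟩, _⟩ := hU w0 hw0U hw0
  obtain ⟨u1, hu1U, hu1⟩ : ∃ u1 ∈ U, Q u1 ≠ 0 := by
    rcases hex x0 w0 hx0 with h | h | h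
    · exact ⟨_, U.add_mem hx0U hw0U, h⟩
    · exact ⟨_, hx0U, h⟩
    · exact ⟨_, hw0U, h⟩
  have hB11 : QuadraticMap.polar Q u1 u1 ≠ 0 := by
    rw [hBself]
    exact mul_ne_zero h2 hu1
  have hu1ne : u1 ≠ 0 := by
    intro h
    apply hu1
    have := hQ.smul 0 u1
    rw [zero_smul] at this
    rw [h, this]
    ring
  obtain ⟨v, hvU, hv⟩ : ∃ v ∈ U, v ∉ Submodule.span F {u1} := by
    by_contra hall
    push Not at hall
    have hle : U ≤ Submodule.span F {u1} := fun v hv => hall v hv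
    have h1 := Submodule.finrank_mono hle
    rw [finrank_span_singleton hu1ne] at h1
    omega
  have hproj : ∀ x ∈ U, ∃ x' ∈ U, QuadraticMap.polar Q u1 x' = 0 ∧ ∃ c : F, x' = x + c • u1 := by
    intro x hx
    refine ⟨x + (-(QuadraticMap.polar Q u1 x / QuadraticMap.polar Q u1 u1)) • u1,
      U.add_mem hx (U.smul_mem _ hu1U), ?_, _, rfl⟩
    rw [hB.add_right, hB.smul_right]
    field_simp
    ring
  obtain ⟨w, hwU, hw1, c, hwc⟩ := hproj v hvU
  have hwne : w ≠ 0 := by
    intro h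
    apply hv
    have hvc : v = (-c) • u1 := by
      rw [h] at hwc
      rw [neg_smul]
      exact eq_neg_of_add_eq_zero_left hwc.symm
    rw [hvc]
    exact Submodule.smul_mem _ _ (Submodule.mem_span_singleton_self u1)
  obtain ⟨⟨x, hxU, hx⟩, _⟩ := hU w hwU hwne
  obtain ⟨x', hx'U, hx'1, c', hx'c⟩ := hproj x hxU
  have hx'w : QuadraticMap.polar Q x' w ≠ 0 := by
    rw [hx'c, hB.add_left, hB.smul_left, hw1, mul_zero, add_zero]
    exact hx
  obtain ⟨u2, hu2U, hu21, hu2⟩ : ∃ u2 ∈ U, QuadraticMap.polar Q u1 u2 = 0 ∧ Q u2 ≠ 0 := by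
    rcases hex x' w hx'w with h | h | h
    · exact ⟨_, U.add_mem hx'U hwU, by rw [hB.add_right, hx'1, hw1, add_zero], h⟩
    · exact ⟨_, hx'U, hx'1, h⟩
    · exact ⟨_, hwU, hw1, h⟩
  have hcard : Fintype.card F % 2 = 1 := by
    apply FiniteField.odd_card_of_char_ne_two
    intro h
    apply h2
    have h3 := ringChar.Nat.cast_ringChar (R := F)
    rw [h] at h3
    exact_mod_cast h3
  have hdf : (Polynomial.C (Q u1) * Polynomial.X ^ 2).degree = 2 := by
    rw [Polynomial.degree_C_mul_X_pow 2 hu1]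
    rfl
  have hdg0 : (Polynomial.C (Q u2) * Polynomial.X ^ 2).degree = 2 := by
    rw [Polynomial.degree_C_mul_X_pow 2 hu2]
    rfl
  have hdg : (Polynomial.C (Q u2) * Polynomial.X ^ 2 - Polynomial.C a).degree = 2 := by
    rw [Polynomial.degree_sub_eq_left_of_degree_lt, hdg0]
    rw [hdg0]
    exact lt_of_le_of_lt Polynomial.degree_C_le (by norm_num)
  obtain ⟨s, t, hst⟩ := FiniteField.exists_root_sum_quadratic hdf hdg hcard
  simp only [Polynomial.eval_mul, Polynomial.eval_C, Polynomial.eval_pow, Polynomial.eval_X,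
    Polynomial.eval_sub] at hst
  refine ⟨s • u1 + t • u2, U.add_mem (U.smul_mem _ hu1U) (U.smul_mem _ hu2U), ?_⟩
  rw [hQadd, hQ.smul, hQ.smul, hB.smul_left, hB.smul_right, hu21]
  linear_combination hst

end Cfsg.Agent.Lib.Helper45.OPar
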